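import Cfsg.Agent.H903.QF.SevenD
import Cfsg.Agent.H461.QF.Seven
import Cfsg.Agent.H287.F4.DSeven

/-!
# S2491, row F4 = `²E₆(2)`, box E7 (helper903; T2: helper461, `d0`: helper287)

`e7` : `g ∈ P₂`, `1 ≠ z ∈ V₂`, `g z = z g`, `7 ∣ o(g)` : `g` commutes with a root element.
-/

set_option autoImplicit false

namespace Cfsg.Agent.H903.QF.ESeven

open Cfsg.Agent.H231.QF

universe u

variable {F : Type u} [Field F] [Fintype F] {φ : F →+* F} (hF : Fintype.card F = 4) (hφ : ∀ t, φ t = t ^ 2)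

include hF hφ

/-- **T1.** -/
theorem T1 : ∃ d0 : KK F, d0 ∈ P φ j2 ∧ orderOf d0 = 7 ∧ ∀ z ∈ V φ j2, d0 * z = z * d0 →
    z ∈ X φ ![1, 3, 4, 2] ⊔ X φ ![2, 3, 4, 2] := by
  obtain ⟨d0, h1, h2⟩ := Cfsg.Agent.H287.F4.DSeven.exists_d0 hF hφ
  obtain ⟨h3, h4⟩ := SevenC.T1_of hF (φ := φ) SevenD.C1 (fun K' _ _ ι z hz => SevenD.C2 hF hφ K' ι z hz)
    (d0 := d0) h2
  exact ⟨d0, h1, h3, h4⟩

/-- **E7.** -/
theorem e7 {g z : KK F} (hg : g ∈ P φ j2) (hz : z ∈ V φ j2) (hz1 : z ≠ 1) (hgz : g * z = z * g)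
    (h7 : 7 ∣ orderOf g) : CR g :=
  Cfsg.Agent.H461.QF.Seven.e7_of hF hφ (T1 hF hφ) hg hz hz1 hgz h7

/-- **E7**, in `P₁`. -/
theorem e7_in {g z : KK F} (hg : g ∈ P φ j2) (hz : z ∈ V φ j2) (hz1 : z ≠ 1) (hgz : g * z = z * g)
    (h7 : 7 ∣ orderOf g) : In φ j1 g :=
  Cfsg.Agent.H461.QF.Seven.e7_in hF hφ (T1 hF hφ) hg hz hz1 hgz h7

end Cfsg.Agent.H903.QF.ESeven
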