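import Cfsg.Agent.H903.QF.SevenC
import Cfsg.Agent.H928.Ore.TwF

/-!
# S2491, row F4 = `²E₆(2)`, box E7 (helper903), part D: the descent

`C1` : `V₂` lies in `V_J` of `E₆(F)`; `C2` : an element of `²E₆(2)` whose base change lies in `Z3` lies in `X_1342 X_2342`.
-/

set_option autoImplicit false
set_option linter.unusedSectionVars false
set_option linter.unusedVariables false

namespace Cfsg.Agent.H903.QF.SevenD

open CoxeterSystem Cfsg.Agent.ChevalleyStructure.CoxeterGeom Cfsg.Agent.Tits.Roots Cfsg.Agent.Tits.Core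
  Cfsg.Agent.Nodes Cfsg.Agent.Nodes.Reps Cfsg.Agent.Nodes.BNOf Cfsg.Agent.Nodes.RGDLib Cfsg.Agent.Nodes.Bruhat
  Cfsg.Agent.Nodes.OppDec Cfsg.Agent.Nodes.LeviDec Cfsg.Agent.Nodes.StabComb Cfsg.Agent.Nodes.KindChev
  Cfsg.Agent.Nodes.ChevCls
  Cfsg.Agent.OddHalf.NI.ModelChev
  Cfsg.Agent.H928.Ore.Frame Cfsg.Agent.H928.Ore.Fix Cfsg.Agent.H928.Ore.Block
open Cfsg.Lie Cfsg.Agent.ChevalleyStructure Cfsg.Agent.ChevalleyStructure.Elts
  Cfsg.Agent.ChevalleyStructure.NPerm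
  Cfsg.Agent.ChevalleyStructure.CoxeterGeomTypes Cfsg.Agent.Nodes.RGDChev Cfsg.Agent.KFacts.RgdChevCoord
open Cfsg.Agent.Nodes.RGDTwGen Cfsg.Agent.Nodes.RGDFold
open Cfsg.Agent.ChevalleyStructure.TwistedU Cfsg.Agent.ChevalleyStructure.TwistedFix
open Cfsg.Agent.ChevalleyStructure.TwE6Basic (hE6 epsE)
open Cfsg.Agent.H928.Ore.TwE (inc inc_injective X_le sgY sgY_xc exists_inc sgY_inc gen_simple)
open Cfsg.Agent.H903.QF.SevenA Cfsg.Agent.H903.QF.SevenB Cfsg.Agent.H903.QF.SevenC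

universe u v

open Cfsg.Agent.Nodes.RGDTwE6 (J) in
theorem tabC : ∀ r : Fin 72, (∀ k : Fin 4, 0 ≤ V chevE6 J r k) → 0 < V chevE6 J r 1 →
    (∀ k : Fin 6, 0 ≤ vec chevE6 6 r k) ∧ 0 < vec chevE6 6 r 3 := by decide +kernel

open Cfsg.Agent.Nodes.RGDTwE6 (J) in
theorem tab70 : H91.E6Fix.rho 70 = 70 ∧ H91.E6Fix.rho 71 = 71 ∧ epsE ⟨70, by decide⟩ = 1 ∧ epsE ⟨71, by decide⟩ = 1 ∧
    V chevE6 J 70 = ![1, 3, 4, 2] ∧ V chevE6 J 71 = ![2, 3, 4, 2] := by decide +kernel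

section

variable {F : Type u} [Field F]

theorem C1 {φ : F →+* F} : H231.QF.V φ H231.QF.j2 ≤
    (VJ CoxeterMatrix.E₆.toCoxeterSystem RGDTwE6.hp.isCartan (XX chevE6 6 F) J6).comap (inc F 2) := by
  refine RGD.Sup_le fun z hz => X_le fun r hr hrz => ?_
  obtain ⟨-, h0, k, hk, hk0⟩ := hz
  have hk1 : k = 1 := not_not.1 hk
  subst hk1
  obtain ⟨h1, h2⟩ := tabC ⟨r, hr⟩ (fun k => by rw [show V chevE6 RGDTwE6.J _ = _ from hrz]; exact h0 k)
    (by rw [show V chevE6 RGDTwE6.J _ = _ from hrz]; exact hk0)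
  exact RGD.le_Sup ⟨isRoot_vec RGDTwE6.hp _ hr, fun k => h1 k, 3, fun h => h rfl, h2⟩

/-- base change commutes with the twisted graph automorphism -/
theorem sgY_bc [Finite F] {K' : Type v} [Field K'] (ι : F →+* K') {φ : F →+* F} {φ' : K' →+* K'} (h : ∀ t, ι (φ t) = φ' (ι t))
    (y : ↥(chevE6.group F)) : sgY φ' (bc chevE6 ι y) = bc chevE6 ι (sgY φ y) := by
  have key : ∀ r, r < 72 → ∀ t : F, sgY φ' (bc chevE6 ι (xc RGDTwE6.hp (vec chevE6 6 r) t)) =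
      bc chevE6 ι (sgY φ (xc RGDTwE6.hp (vec chevE6 6 r) t)) := by
    intro r hr t
    rw [bc_xc RGDTwE6.hp ι hr, sgY_xc φ' hr, sgY_xc φ hr, bc_xc RGDTwE6.hp ι (H91.E6Fix.rho_lt r hr), map_mul,
      map_intCast, h]
  have h1 : ((sgY φ').comp (bc chevE6 ι)).eqLocus ((bc chevE6 ι).comp (sgY φ)) = ⊤ := by
    refine gen_simple RGDTwE6.hp (fun i t => ?_) (fun i t => ?_)
    · have hi := simple_lt RGDTwE6.hp.inList (lt_rank RGDTwE6.hp i)
      rw [← vec_simple RGDTwE6.hp i]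
      exact key _ hi t
    · have hi := simple_lt RGDTwE6.hp.inList (lt_rank RGDTwE6.hp i)
      rw [← vec_simple RGDTwE6.hp i, ← vec_neg RGDTwE6.hp hi]
      exact key _ (neg_lt RGDTwE6.hp.inList hi) t
  have h2 : y ∈ ((sgY φ').comp (bc chevE6 ι)).eqLocus ((bc chevE6 ι).comp (sgY φ)) := by
    rw [h1]; exact Subgroup.mem_top y
  exact h2

/-- uniqueness of the coordinates on `Z3` -/
theorem uniq {a b a' b' : F} (h : xc RGDTwE6.hp (vec chevE6 6 70) a * xc RGDTwE6.hp (vec chevE6 6 71) b =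
    xc RGDTwE6.hp (vec chevE6 6 70) a' * xc RGDTwE6.hp (vec chevE6 6 71) b') : a = a' ∧ b = b' := by
  have key : ∀ a b : F, xc RGDTwE6.hp (vec chevE6 6 46) 1 * (xc RGDTwE6.hp (vec chevE6 6 70) a *
      xc RGDTwE6.hp (vec chevE6 6 71) b) * (xc RGDTwE6.hp (vec chevE6 6 46) 1)⁻¹ =
      (xc RGDTwE6.hp (vec chevE6 6 70) a * xc RGDTwE6.hp (vec chevE6 6 71) b) * xc RGDTwE6.hp (vec chevE6 6 71) a := by
    intro a b
    have e1 := comm46 (1 : F) a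
    have e2 := comm_root (K := F) (r := 46) (s := 71) (by decide) (by decide) o46.2.2.1.1 o46.2.2.1.2.1 o46.2.2.1.2.2 1 b
    have e3 : xc RGDTwE6.hp (vec chevE6 6 71) a * xc RGDTwE6.hp (vec chevE6 6 71) b =
        xc RGDTwE6.hp (vec chevE6 6 71) b * xc RGDTwE6.hp (vec chevE6 6 71) a := by
      apply Subtype.ext
      change ((xc RGDTwE6.hp (vec chevE6 6 71) a : ↥(chevE6.group F)) : GL chevE6.Idx F) *
        ((xc RGDTwE6.hp (vec chevE6 6 71) b : ↥(chevE6.group F)) : GL chevE6.Idx F) =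
        ((xc RGDTwE6.hp (vec chevE6 6 71) b : ↥(chevE6.group F)) : GL chevE6.Idx F) *
        ((xc RGDTwE6.hp (vec chevE6 6 71) a : ↥(chevE6.group F)) : GL chevE6.Idx F)
      rw [coe_xc RGDTwE6.hp (by decide), coe_xc RGDTwE6.hp (by decide), xG_add, xG_add, add_comm]
    rw [one_mul] at e1
    generalize xc RGDTwE6.hp (vec chevE6 6 46) (1 : F) = w at *
    generalize xc RGDTwE6.hp (vec chevE6 6 70) a = x at *
    generalize xc RGDTwE6.hp (vec chevE6 6 71) b = y at *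
    generalize xc RGDTwE6.hp (vec chevE6 6 71) a = y' at *
    calc w * (x * y) * w⁻¹ = (w * x) * y * w⁻¹ := by group
      _ = x * y' * (w * y) * w⁻¹ := by rw [e1]; group
      _ = x * (y' * y) := by rw [e2]; group
      _ = x * y * y' := by rw [e3]; group
  have h1 := key a b
  rw [h, key a' b'] at h1
  have h2 := xc_inj RGDTwE6.hp (by decide) (mul_left_cancel h1)
  subst h2
  exact ⟨rfl, xc_inj RGDTwE6.hp (by decide) (mul_left_cancel h)⟩

end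

section

variable {F : Type u} [Field F] [Fintype F] {φ : F →+* F} (hF : Fintype.card F = 4) (hφ : ∀ t, φ t = t ^ 2)

include hF in
theorem hqq (t : F) : (t ^ 2) ^ 2 = t := by
  rw [← pow_mul]
  have h := FiniteField.pow_card t
  rwa [hF] at h

include hF hφ

/-- the root elements `x_70 (c)`, `x_71 (c)`, `c` in the prime field -/
theorem exists_X {r : ℕ} (hr : r < 72) (h1 : H91.E6Fix.rho r = r) (h2 : epsE ⟨r, hr⟩ = 1) {c : F} (hc : φ c = c) :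
    ∃ u ∈ H231.QF.X φ (V chevE6 RGDTwE6.J r), inc F 2 u = xc RGDTwE6.hp (vec chevE6 6 r) c := by
  obtain ⟨u, hu⟩ := exists_inc hφ (hqq hF) (y := xc RGDTwE6.hp (vec chevE6 6 r) c) (by
    rw [sgY_xc φ hr, h1, h2, hc, Int.cast_one, one_mul])
  refine ⟨u, Subgroup.mem_subgroupOf.2 ⟨?_, TwE6Basic.twisted_le_fix φ hφ (hqq hF) u.2⟩, hu⟩
  have h3 := congrArg (Subtype.val) hu
  rw [coe_xc RGDTwE6.hp hr] at h3
  have h4 : ((u : ↥(twistedE6 F 2)) : GL chevE6.Idx F) = xG RGDTwE6.hp.inList r c := h3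
  rw [h4]
  exact mem_rspan (xG (F := F) RGDTwE6.hp.inList)
    (S := {k | k < chevE6.nroots ∧ V chevE6 RGDTwE6.J k = V chevE6 RGDTwE6.J r}) ⟨hr, rfl⟩ _

theorem C2 (K' : Type u) [Field K'] [Finite K'] (ι : F →+* K') (z : H231.QF.KK F)
    (hz : bc chevE6 ι (inc F 2 z) ∈ Z3 K') :
    z ∈ H231.QF.X φ ![1, 3, 4, 2] ⊔ H231.QF.X φ ![2, 3, 4, 2] := by
  have h2 : (2 : F) = 0 := two_zero hF
  have h2' : (2 : K') = 0 := by rw [← map_ofNat ι 2, h2, map_zero]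
  have : CharP K' 2 := CharTwo.of_one_ne_zero_of_two_eq_zero one_ne_zero h2'
  obtain ⟨φ', hφ'⟩ : ∃ φ' : K' →+* K', ∀ t, φ' t = t ^ 2 := ⟨frobenius K' 2, fun t => frobenius_def 2 t⟩
  obtain ⟨t1, t2, t3, t4, t5, t6⟩ := tab70
  obtain ⟨a, b, e⟩ := mem_Z3 hz
  have h3 : sgY φ' (bc chevE6 ι (inc F 2 z)) = bc chevE6 ι (inc F 2 z) := by
    rw [sgY_bc ι (φ := φ) (fun t => by rw [hφ, hφ', map_pow]), sgY_inc hφ (hqq hF)]
  rw [e, map_mul, sgY_xc φ' (r := 70) (by decide), sgY_xc φ' (r := 71) (by decide), t1, t2, t3, t4, Int.cast_one, one_mul,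
    one_mul, hφ', hφ'] at h3
  obtain ⟨ha, hb⟩ := uniq h3
  have key : ∀ c : K', c ^ 2 = c → ∃ c0 : F, φ c0 = c0 ∧ ι c0 = c := by
    intro c hc
    have h4 : c * (c - 1) = 0 := by linear_combination hc
    rcases mul_eq_zero.1 h4 with h5 | h5
    · exact ⟨0, map_zero φ, by rw [map_zero, h5]⟩
    · exact ⟨1, map_one φ, by rw [map_one]; linear_combination -h5⟩
  obtain ⟨a0, ha0, ha1⟩ := key a ha
  obtain ⟨b0, hb0, hb1⟩ := key b hb
  obtain ⟨u, hu, hu2⟩ := exists_X hF hφ (r := 70) (by decide) t1 t3 ha0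
  obtain ⟨v, hv, hv2⟩ := exists_X hF hφ (r := 71) (by decide) t2 t4 hb0
  rw [t5] at hu
  rw [t6] at hv
  have h5 : z = u * v := by
    apply inc_injective 2
    apply bc_injective chevE6 ι
    rw [e, map_mul, map_mul, hu2, hv2, bc_xc RGDTwE6.hp ι (by decide), bc_xc RGDTwE6.hp ι (by decide), ha1, hb1]
  rw [h5]
  exact mul_mem ((le_sup_left : _ ≤ H231.QF.X φ ![1, 3, 4, 2] ⊔ H231.QF.X φ ![2, 3, 4, 2]) hu)
    ((le_sup_right : _ ≤ H231.QF.X φ ![1, 3, 4, 2] ⊔ H231.QF.X φ ![2, 3, 4, 2]) hv)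

end

end Cfsg.Agent.H903.QF.SevenD
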